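import Cfsg.Agent.CosetEnum.MG23.QData
import Cfsg.Agent.MulX.Part

/-! Partial coset enumeration (generated data, owner: helper58). -/

set_option autoImplicit false
set_option maxRecDepth 1000000

namespace Cfsg.Agent.CosetEnum.MG23Q

def ck1 : CK := .cons 32 23 0x2b00459d00c8014865008a5a0022680153b42d200f200320252009004e4508086500bc9a0113400bb6a03120232000a45e22e9000084062349 ( .cons 32 21 0x36900080ac8d8409a42c21710005242013f940000100012099000322d10048d6432200528601795405441a20610002200a6404215802fa680cc800400240644002ac017c7402fa10 ( .cons 32 18 0x1e237900714300a71a0d904c854420224014dd4052003159218060ad01489004f4d1200a2ba420145740023710dc8004031a9007c80a4052420153741b21940240282e4009883400c42a16900091200c05a68017954058400040900595d ( .cons 32 25 0x1220291cc86500c1fa3911c48384000000c85c42c2000841720190003c4006404241e2131010801210b484300957a07020015600c23a17100022001 ( .cons 32 20 0x80ac0145940048a18062f5086014114d002efe81d48002901210005200520d0027a680a43420291948018b2806125000623a1070800c684009024016f9400c4d0031928 ( .cons 19 12 0x32078200d6400200123711b48063720148ee400ac014df4003b1 ( .nil ))))))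

theorem part1 : chunksQ P L 3187 ck1 3008 = true := by decide +kernel

end Cfsg.Agent.CosetEnum.MG23Q
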