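import Cfsg.Agent.CosetEnum.MG23.UData

/-! Certificate of a coset enumeration (generated data, owner: helper28). -/

set_option autoImplicit false
set_option maxRecDepth 1000000

namespace Cfsg.Agent.CosetEnum.MG23U

def ck2 : CK := .cons 32 32 0x9008800000400040020000002009000002100010019010800010000000240120002000200010800480000240000000100190000200100010000200120010000000200103c800010009004800000010000206100090004200120290011000020090001000120002001004801080440020090021000120010029000100010001200004000000042029 ( .cons 32 32 0x10048000004004400202900010009000420012000009004800880001002100022004200000020090000a401200000000800400240000004042001200000320000081e400008024000000080148002101080001000120000000010009008800880a40000800002004200120000400048024000400040000010804400000201100880001 ( .cons 32 32 0x900880009008800032009002900002401200000020110000840520012000008044000000022000003201100090019008800480000011001900080000108004802400000001000000800000401200120110000088000004000000401201900080004201100012011000014800052000001 ( .cons 32 32 0x12009001100001080000840000004012000000001000084000022029000000800480000021000000900000002009000100008402200000020090011000000100008400001000000220002000200120090008000800042011000044052001201900880000008000800880048000000044000000022029 ( .cons 32 32 0x200000120000004400048000020090000009008800000090002200120000002400009008800010008000020090001000900480000021000120000000880048000800480240320002000640220000c8024002405200001900880000088000120032011000900000c80040000044000000400002200100480008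 ( .cons 32 32 0x100000000090000008000000800010000000000008000000800000400011000120000080240000000120004400048044000010000000000001200000100000010000200000000000000020002000040020000010008024000000880000000040 ( .cons 4 4 0x2000001 ( .nil )))))))

theorem part2 : chunks P L 6212 ck2 6016 196 = true := by decide +kernel

end Cfsg.Agent.CosetEnum.MG23U
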