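import Cfsg.Agent.MulX.Part
import Cfsg.Agent.CosetEnum.MG23.QP0
import Cfsg.Agent.CosetEnum.MG23.QP1
import Cfsg.Agent.CosetEnum.Step
import Cfsg.Agent.CosetEnum.MG23.UP0
import Cfsg.Agent.CosetEnum.MG23.UP1
import Cfsg.Agent.CosetEnum.MG23.UP2
import Cfsg.Agent.CosetEnum.MG23.GP0
import Cfsg.Agent.CosetEnum.Level
import Cfsg.Agent.CosetEnum.MG23.TR0
import Cfsg.Agent.CosetEnum.MG23.TR1
import Cfsg.Agent.CosetEnum.MG23.TR2
import Cfsg.Agent.CosetEnum.MG23.TR3

/-! Certificates of coset enumerations and tables (generated, owner: helper28). -/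

set_option autoImplicit false
set_option maxRecDepth 1000000

namespace Cfsg.Agent.CosetEnum.MG23Q

theorem st : staticOK 6 iv (RL.map expand) subs P L = true := by decide +kernel

theorem seg : SegQ P L P.m :=
  ((SegQ.nil).snoc part0).snoc part1

theorem tgt : tgtB P us = true := by decide +kernel

theorem cert : PCert 6 iv RL subs us := fun g H hl hrels hsubs =>
  mem_of_part g H 6 iv hl (RL.map expand) subs hrels hsubs P L rfl st seg (by decide) tgt

end Cfsg.Agent.CosetEnum.MG23Q
namespace Cfsg.Agent.CosetEnum.MG23U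

theorem st : staticOK 6 iv (RL.map expand) subs P L = true := by decide +kernel

theorem seg : Seg P L P.m 6048 :=
  (((Seg.nil).snoc part0).snoc part1).snoc part2

theorem cert : Cert 6 iv RL subs 6048 := fun g H hl hrels hsubs =>
  upper g H 6 iv hl (RL.map expand) subs hrels hsubs P L rfl st seg

end Cfsg.Agent.CosetEnum.MG23U
namespace Cfsg.Agent.CosetEnum.MG23G

theorem st : staticOK 8 iv (RL.map expand) subs P L = true := by decide +kernel

theorem seg : Seg P L P.m 2106 :=
  (Seg.nil).snoc part0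

theorem cert : Cert 8 iv RL subs 2106 := fun g H hl hrels hsubs =>
  upper g H 8 iv hl (RL.map expand) subs hrels hsubs P L rfl st seg

end Cfsg.Agent.CosetEnum.MG23G
namespace Cfsg.Agent.CosetEnum.MG23T

theorem st : letsB 8 iv lets RL = true := by decide +kernel

theorem tabOK : TabOK P 8 iv lets RL := ⟨st, (((Cov.of r0 rfl).trans (Cov.of r1 rfl)).trans (Cov.of r2 rfl)).trans (Cov.of r3 rfl)⟩

theorem covO : Cov (orbC P lets [] 0 P.m) 0 P.m := (((Cov.of o0 rfl).trans (Cov.of o1 rfl)).trans (Cov.of o2 rfl)).trans (Cov.of o3 rfl)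

end Cfsg.Agent.CosetEnum.MG23T
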